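/-
The roots of the sublattice fixed by an involution, and their classes modulo two.
-/
import Cfsg.Agent.Leech.Co2Cent.Data
import Cfsg.Agent.Leech.Co2MultModel
import Cfsg.Agent.Golay.OctKernel
import Cfsg.Agent.SpSixTwo.Upper
import Cfsg.Agent.Leech.Pairs

set_option autoImplicit false
set_option maxRecDepth 100000

namespace CfsgLib.Leech.Co2Cent

open Cfsg CfsgLib.Golay Matrix CfsgLib.Leech.Co3Mult
open CfsgLib.SpSixTwo (V6 G0 vec pos)

/-- The octad. -/
abbrev O : Finset GolayPt := OctStab.O

/-- A vector supported on the octad. -/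
def Supp (x : GolayPt → ℤ) : Prop := ∀ p, p ∉ O → x p = 0

/-- A root. -/
def IsRoot (x : GolayPt → ℤ) : Prop :=
  x ∈ leechLattice ∧ Supp x ∧ dotInt x Spor.vecU = 0 ∧ sqNorm x = 32

/-- The inner product on the octad of packed vectors. -/
def dot8 (x y : ℕ) : ℤ :=
  (OctStab.inPts.map fun t => ((fld x t : ℤ) - 8) * ((fld y t : ℤ) - 8)).sum

theorem O_toList : (OctStab.inPts.map ptN).toFinset = O := by decide +kernel

theorem inPts_nodup : (OctStab.inPts.map ptN).Nodup := by decide +kernel

theorem dot8_spec {x : ℕ} (hx : Supp (Val x)) (y : ℕ) : dotInt (Val x) (Val y) = dot8 x y := by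
  rw [dotInt, ← Finset.sum_subset (Finset.subset_univ O) (fun p _ hp => by rw [hx p hp, zero_mul]),
    ← O_toList, List.sum_toFinset _ inPts_nodup, List.map_map, dot8]
  refine congrArg List.sum (List.map_congr_left fun t ht => ?_)
  have h24 : t < 24 := (by decide : ∀ i ∈ OctStab.inPts, i < 24) t ht
  simp only [Function.comp_apply, Val, idx_ptN h24]

/-- Vanishing outside the octad. -/
def suppChk (x : ℕ) : Bool := OctStab.outPts.all fun t => Nat.beq (fld x t) 8

theorem suppChk_spec {x : ℕ} (h : suppChk x = true) : Supp (Val x) := fun p hp => by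
  have := List.all_eq_true.1 h _ (OctStab.mem_outPts.1 hp)
  rw [Nat.beq_eq] at this
  simp [Val, this]

theorem vecU_val : Spor.vecU = Val Co2Mult.uPk := funext fun p => (Co2Mult.uPk_ok.2.1 p).symm

/-- The checks of the table of roots. -/
def tabChk : Bool :=
  rootTab.all fun a => wf a.1 && suppChk a.1 && inLeech (Val a.1) && decide (dot8 a.1 Co2Mult.uPk = 0) &&
    decide (dot8 a.1 a.1 = 32) && Nat.blt a.2 64 && !(Nat.beq a.2 0)

theorem tab_ok : tabChk = true := by decide +kernel

theorem tab_spec {a : ℕ × ℕ} (ha : a ∈ rootTab) :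
    wf a.1 = true ∧ IsRoot (Val a.1) ∧ a.2 < 64 ∧ a.2 ≠ 0 := by
  have h := List.all_eq_true.1 tab_ok a ha
  simp only [Bool.and_eq_true, decide_eq_true_eq, Nat.blt_eq, Bool.not_eq_true'] at h
  obtain ⟨⟨⟨⟨⟨⟨hw, hs⟩, hl⟩, hu⟩, hn⟩, h64⟩, h0⟩ := h
  refine ⟨hw, ⟨inLeech_spec hl, suppChk_spec hs, ?_, ?_⟩, h64, fun e => ?_⟩
  · rw [vecU_val, dot8_spec (suppChk_spec hs), hu]
  · rw [← dot_self, dot8_spec (suppChk_spec hs), hn]
  · rw [e] at h0; simp at h0

/-! ### Completeness -/

/-- All tuples over a list. -/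
def tup (A : List ℤ) : ℕ → List (List ℤ)
  | 0 => [[]]
  | n + 1 => A.flatMap fun a => (tup A n).map (a :: ·)

theorem mem_tup {A : List ℤ} : ∀ l : List ℤ, (∀ a ∈ l, a ∈ A) → l ∈ tup A l.length
  | [], _ => List.mem_singleton.2 rfl
  | a :: r, h => List.mem_flatMap.2 ⟨a, h a List.mem_cons_self,
      List.mem_map.2 ⟨r, mem_tup r fun b hb => h b (List.mem_cons_of_mem _ hb), rfl⟩⟩

/-- Half the coordinates on the octad, completed by the orthogonality to the fixed vector. -/
def full (w : List ℤ) : List ℤ := w ++ [-(w.getD 0 0)]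

/-- The packed vector with given halves on the octad. -/
def packW (w : List ℤ) : ℕ := pkV fun t => 2 * (full w).getD (OctStab.inPts.idxOf t) 0

/-- A completion with the right norm and sum is listed. -/
def wChk (w : List ℤ) : Bool :=
  bif decide (((full w).map fun a => a * a).sum = 8) && decide ((full w).sum % 4 = 0) then
    (rootTab.any fun a => Nat.beq a.1 (packW w))
  else true

theorem even_enum : ((tup [-2, 0, 2] 7).all wChk) = true := by decide +kernel

theorem odd_enum : ((tup [-1, 1] 7).all wChk) = true := by decide +kernel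

theorem code_in_octad : (codeList.all fun m =>
    bif Nat.beq (m ||| octO) octO then Nat.beq m 0 || Nat.beq m octO else true) = true := by decide +kernel

theorem fld_pkN : ∀ (n : ℕ) (f : ℕ → ℕ), (∀ t < n, f t < 65536) → ∀ t < n, fld (pkN n f) t = f t
  | 0, _, _, t, ht => absurd ht t.not_lt_zero
  | n + 1, f, hf, t, ht => by
    have h0 := hf 0 n.succ_pos
    show (f 0 + 65536 * pkN n fun s => f (s + 1)) / 65536 ^ t % 65536 = f t
    rcases t with _ | t
    · rw [pow_zero, Nat.div_one, Nat.add_mul_mod_self_left, Nat.mod_eq_of_lt h0]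
    · rw [pow_succ', ← Nat.div_div_eq_div_mul, Nat.add_mul_div_left _ _ (by norm_num : 0 < 65536),
        Nat.div_eq_of_lt h0, zero_add]
      exact fld_pkN n (fun s => f (s + 1)) (fun s hs => hf _ (Nat.succ_lt_succ hs)) t (Nat.lt_of_succ_lt_succ ht)

theorem Val_pkV {f : ℕ → ℤ} (h : ∀ t < 24, -8 ≤ f t ∧ f t ≤ 100) (p : GolayPt) :
    Val (pkV f) p = f (idx p).val := by
  have := h _ (idx p).isLt
  rw [Val, pkV, fld_pkN 24 _ (fun t ht => by have := h t ht; omega) _ (idx p).isLt,
    Int.toNat_of_nonneg (by omega)]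
  omega

theorem complete {y : GolayPt → ℤ} (hy : IsRoot y) : ∃ a ∈ rootTab, y = Val a.1 := by
  obtain ⟨hl, hs, hu, hn⟩ := hy
  obtain ⟨m, hm, hpar, hsum, hcode⟩ := mem_lattice.1 hl
  have hout : (OctStab.O : Finset GolayPt) ≠ Finset.univ := fun e => OctStab.p0_not_mem (e ▸ Finset.mem_univ _)
  have hm0 : m = 0 := by
    have := hpar (ptN 1)
    rw [hs _ OctStab.p0_not_mem] at this
    omega
  subst hm0
  let w : GolayPt → ℤ := fun p => y p / 2
  have hw : ∀ p, y p = 2 * w p := fun p => by have := hpar p; simp only [w]; omega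
  -- the parity word is trivial or the whole octad
  have hmem := mem_code_iff_list.1 hcode
  have hsub : wmask (half y) ||| octO = octO := by
    refine Nat.eq_of_testBit_eq fun i => ?_
    rw [Nat.testBit_or]
    by_cases hi : i < 24
    · by_cases ho : ptN i ∈ O
      · rw [mem_toSet, idx_ptN hi] at ho
        rw [ho, Bool.or_true]
      · have e : (wmask (half y)).testBit i = false := by
          have e0 : half y (ptN i) = 0 := by simp [half, hs _ ho]
          have := testBit_mask (support₂ (half y)) (ptN i)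
          rw [idx_ptN hi] at this
          rw [wmask, this]
          simpa [support₂] using e0
        rw [e, Bool.false_or]
    · have h1 := (mem_codeList.1 hmem).2
      rw [Nat.testBit_lt_two_pow (lt_of_lt_of_le h1 (Nat.pow_le_pow_right (by norm_num) (not_lt.1 hi))), Bool.false_or]
  have hcases := List.all_eq_true.1 code_in_octad _ hmem
  rw [show Nat.beq (wmask (half y) ||| octO) octO = true by rw [Nat.beq_eq]; exact hsub, cond_true,
    Bool.or_eq_true, Nat.beq_eq, Nat.beq_eq] at hcases
  have hpar2 : ∃ r : ℤ, (r = 0 ∨ r = 1) ∧ ∀ p ∈ O, w p % 2 = r := by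
    have hbit : ∀ p, (wmask (half y)).testBit (idx p).val = decide (w p % 2 = 1) := fun p => by
      rw [wmask, testBit_mask]
      refine decide_eq_decide.2 ?_
      rw [show p ∈ support₂ (half y) ↔ half y p ≠ 0 by simp [support₂], half, ne_eq,
        ZMod.intCast_zmod_eq_zero_iff_dvd]
      simp only [w]
      omega
    rcases hcases with e | e <;> rw [e] at hbit
    · exact ⟨0, Or.inl rfl, fun p _ => by have := hbit p; simp at this; omega⟩
    · refine ⟨1, Or.inr rfl, fun p hp => ?_⟩
      have := hbit p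
      rw [mem_toSet.1 hp] at this
      simpa using this.symm
  obtain ⟨r, hr, hrp⟩ := hpar2
  have hsumO : ∀ f : GolayPt → ℤ, (∀ p, p ∉ O → f p = 0) →
      ∑ p, f p = (OctStab.inPts.map fun t => f (ptN t)).sum := fun f hf => by
    rw [← Finset.sum_subset (Finset.subset_univ O) (fun p _ hp => hf p hp), ← O_toList,
      List.sum_toFinset _ inPts_nodup, List.map_map]
    rfl
  have hN := hsumO (fun p => y p ^ 2) (fun p hp => by rw [hs p hp]; rfl)
  rw [show ∑ p, y p ^ 2 = 32 from hn] at hN
  have hS := hsumO y hs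
  have hU := hsumO (fun p => y p * Spor.vecU p) (fun p hp => by rw [hs p hp, zero_mul])
  rw [show ∑ p, y p * Spor.vecU p = 0 from hu] at hU
  have hv : ∀ t ∈ OctStab.inPts, Spor.vecU (ptN t) = if t = 0 ∨ t = 23 then 4 else 0 := by decide +kernel
  simp only [OctStab.inPts, List.map_cons, List.map_nil, List.sum_cons, List.sum_nil] at hN hS hU
  rw [hv 0 (by simp [OctStab.inPts]), hv 2 (by simp [OctStab.inPts]), hv 4 (by simp [OctStab.inPts]),
    hv 5 (by simp [OctStab.inPts]), hv 6 (by simp [OctStab.inPts]), hv 10 (by simp [OctStab.inPts]),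
    hv 11 (by simp [OctStab.inPts]), hv 23 (by simp [OctStab.inPts])] at hU
  norm_num at hU
  rw [hS] at hsum
  simp only [hw] at hN hsum hU
  set W := [w (ptN 0), w (ptN 2), w (ptN 4), w (ptN 5), w (ptN 6), w (ptN 10), w (ptN 11)] with hW
  have h23 : w (ptN 23) = -w (ptN 0) := by omega
  have hfull : full W = [w (ptN 0), w (ptN 2), w (ptN 4), w (ptN 5), w (ptN 6), w (ptN 10), w (ptN 11), w (ptN 23)] := by
    rw [h23]; rfl
  have hq : ((full W).map fun a => a * a).sum = 8 := by
    rw [hfull]
    simp only [List.map_cons, List.map_nil, List.sum_cons, List.sum_nil]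
    linarith [hN]
  have hs4 : (full W).sum % 4 = 0 := by
    rw [hfull]
    simp only [List.sum_cons, List.sum_nil]
    omega
  have hbound : ∀ a ∈ full W, a * a ≤ 8 := fun a ha => by
    have : ∀ l : List ℤ, a ∈ l → a * a ≤ (l.map fun b => b * b).sum := by
      intro l
      induction l with
      | nil => simp
      | cons b l ih =>
        intro h
        have hnn : (0 : ℤ) ≤ (l.map fun b => b * b).sum :=
          List.sum_nonneg fun x hx => by obtain ⟨c, -, rfl⟩ := List.mem_map.1 hx; exact mul_self_nonneg c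
        simp only [List.map_cons, List.sum_cons]
        rcases List.mem_cons.1 h with rfl | h
        · omega
        · have := ih h; have := mul_self_nonneg b; omega
    exact hq ▸ this _ ha
  have habs : ∀ a : ℤ, a * a ≤ 8 → -2 ≤ a ∧ a ≤ 2 := fun a ha => by
    constructor <;> by_contra hc
    · have : a ≤ -3 := by omega
      nlinarith
    · have : 3 ≤ a := by omega
      nlinarith
  have hO : ∀ t ∈ OctStab.inPts, ptN t ∈ O := by decide +kernel
  have hWmem : ∀ a ∈ W, a ∈ full W := fun a ha => List.mem_append_left _ ha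
  have hWpar : ∀ a ∈ W, a % 2 = r := fun a ha => by
    simp only [hW, List.mem_cons, List.not_mem_nil, or_false] at ha
    rcases ha with rfl | rfl | rfl | rfl | rfl | rfl | rfl <;> exact hrp _ (hO _ (by simp [OctStab.inPts]))
  have hsmall : ∀ a ∈ W, -2 ≤ a ∧ a ≤ 2 := fun a ha => by
    exact habs a (hbound a (hWmem a ha))
  have hin : wChk W = true := by
    rcases hr with rfl | rfl
    · refine List.all_eq_true.1 even_enum W (mem_tup W fun a ha => ?_)
      have := hWpar a ha; have := hsmall a ha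
      simp only [List.mem_cons, List.not_mem_nil, or_false]
      omega
    · refine List.all_eq_true.1 odd_enum W (mem_tup W fun a ha => ?_)
      have := hWpar a ha; have := hsmall a ha
      simp only [List.mem_cons, List.not_mem_nil, or_false]
      omega
  rw [wChk, show (decide (((full W).map fun a => a * a).sum = 8) && decide ((full W).sum % 4 = 0)) = true by
    simp [hq, hs4], cond_true, List.any_eq_true] at hin
  obtain ⟨a, ha, e⟩ := hin
  rw [Nat.beq_eq] at e
  refine ⟨a, ha, funext fun p => ?_⟩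
  rw [e, packW, Val_pkV fun t _ => ?_]
  · by_cases hp : p ∈ O
    · obtain ⟨t, ht, rfl⟩ : ∃ t ∈ OctStab.inPts, ptN t = p :=
        ⟨_, OctStab.mem_inPts.1 hp, ptN_idx p⟩
      rw [idx_ptN ((by decide : ∀ i ∈ OctStab.inPts, i < 24) t ht), hfull, hw]
      simp only [OctStab.inPts, List.mem_cons, List.not_mem_nil, or_false] at ht
      rcases ht with rfl | rfl | rfl | rfl | rfl | rfl | rfl | rfl <;> rfl
    · have h8 : (OctStab.inPts.idxOf (idx p).val) = 8 :=
        (by decide : ∀ t ∈ OctStab.outPts, OctStab.inPts.idxOf t = 8) _ (OctStab.mem_outPts.1 hp)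
      rw [hs p hp, h8, hfull]
      rfl
  · have : ∀ i, -4 ≤ 2 * (full W).getD i 0 ∧ 2 * (full W).getD i 0 ≤ 4 := fun i => by
      by_cases hi : i < (full W).length
      · rw [List.getD_eq_getElem _ _ hi]
        have := habs _ (hbound _ (List.getElem_mem hi))
        omega
      · rw [List.getD_eq_default _ _ (not_lt.1 hi)]; omega
    have := this (OctStab.inPts.idxOf t)
    omega

/-! ### The classes -/

/-- The basis vector dual to a coordinate. -/
def dualPos : Fin 3 ⊕ Fin 3 → ℕ
  | .inl i => i.val + 3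
  | .inr i => i.val

/-- A packed basis root. -/
def bas (n : ℕ) : ℕ := basisTab.getD n 0

/-- The class of a vector. -/
def bar (x : GolayPt → ℤ) : V6 := fun i => ((dotInt x (Val (bas (dualPos i))) / 16 : ℤ) : ZMod 2)

/-- The class and pairing checks of one root. -/
def codeChk (a : ℕ × ℕ) : Bool :=
  decide (∀ i : Fin 3 ⊕ Fin 3, ((dot8 a.1 (bas (dualPos i)) / 16 : ℤ) : ZMod 2) = vec a.2 i)

theorem code_ok : (rootTab.all codeChk) = true := by decide +kernel

theorem bar_tab {a : ℕ × ℕ} (ha : a ∈ rootTab) : bar (Val a.1) = vec a.2 := funext fun i => by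
  rw [bar, dot8_spec (tab_spec ha).2.1.2.1]
  exact (of_decide_eq_true (List.all_eq_true.1 code_ok a ha)) i

/-- The alternating form on codes. -/
def formN (x y : ℕ) : ℕ :=
  ((x &&& (y / 8)).testBit 0).toNat + ((x &&& (y / 8)).testBit 1).toNat + ((x &&& (y / 8)).testBit 2).toNat +
    (((x / 8) &&& y).testBit 0).toNat + (((x / 8) &&& y).testBit 1).toNat + (((x / 8) &&& y).testBit 2).toNat

theorem formN_spec : ∀ x < 64, ∀ y < 64, Cfsg.sympForm 3 (ZMod 2) (vec x) (vec y) = ((formN x y : ℕ) : ZMod 2) := by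
  decide +kernel

theorem pair_ok : (rootTab.all fun a => rootTab.all fun b =>
    decide ((dot8 a.1 b.1 / 16) % 2 = ((formN a.2 b.2 % 2 : ℕ) : ℤ))) = true := by decide +kernel

theorem form_bar {x y : GolayPt → ℤ} (hx : IsRoot x) (hy : IsRoot y) :
    Cfsg.sympForm 3 (ZMod 2) (bar x) (bar y) = ((dotInt x y / 16 : ℤ) : ZMod 2) := by
  obtain ⟨a, ha, rfl⟩ := complete hx
  obtain ⟨b, hb, rfl⟩ := complete hy
  rw [bar_tab ha, bar_tab hb, formN_spec _ (tab_spec ha).2.2.1 _ (tab_spec hb).2.2.1, dot8_spec hx.2.1,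
    ← Int.cast_natCast, ZMod.intCast_eq_intCast_iff']
  have := of_decide_eq_true (List.all_eq_true.1 (List.all_eq_true.1 pair_ok a ha) b hb)
  omega

theorem bas_root_ok : ((List.range 6).all fun n => rootTab.any fun a =>
    Nat.beq a.1 (bas n) && Nat.beq a.2 (2 ^ n)) = true := by decide +kernel

theorem vec_pow : ∀ k : Fin 3 ⊕ Fin 3, vec (2 ^ pos k) = Pi.single k 1 := by decide +kernel

theorem pos_lt (k : Fin 3 ⊕ Fin 3) : pos k < 6 := by
  rcases k with i | i <;> simp only [pos] <;> omega

theorem bas_spec (k : Fin 3 ⊕ Fin 3) :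
    IsRoot (Val (bas (pos k))) ∧ bar (Val (bas (pos k))) = Pi.single k 1 := by
  obtain ⟨a, ha, e⟩ := List.any_eq_true.1 (List.all_eq_true.1 bas_root_ok (pos k) (List.mem_range.2 (pos_lt k)))
  simp only [Bool.and_eq_true, Nat.beq_eq] at e
  rw [← e.1, bar_tab ha, e.2, vec_pow]
  exact ⟨(tab_spec ha).2.1, rfl⟩

theorem same_code : (rootTab.all fun a => rootTab.all fun b => bif Nat.beq a.2 b.2 then
    Nat.beq a.1 b.1 || (List.range 24).all (fun t => Nat.beq (fld a.1 t + fld b.1 t) 16) else true) = true := by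
  decide +kernel

theorem eq_or_neg_of_bar {x y : GolayPt → ℤ} (hx : IsRoot x) (hy : IsRoot y) (h : bar x = bar y) :
    x = y ∨ x = -y := by
  obtain ⟨a, ha, rfl⟩ := complete hx
  obtain ⟨b, hb, rfl⟩ := complete hy
  rw [bar_tab ha, bar_tab hb] at h
  have hc : a.2 = b.2 := by
    rw [← CfsgLib.SpSixTwo.enc_vec _ (tab_spec ha).2.2.1, ← CfsgLib.SpSixTwo.enc_vec _ (tab_spec hb).2.2.1, h]
  have hh := List.all_eq_true.1 (List.all_eq_true.1 same_code a ha) b hb
  rw [show Nat.beq a.2 b.2 = true by rw [Nat.beq_eq]; exact hc, cond_true, Bool.or_eq_true] at hh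
  rcases hh with e | e
  · rw [Nat.beq_eq] at e; exact Or.inl (by rw [e])
  · refine Or.inr (funext fun p => ?_)
    have := List.all_eq_true.1 e _ (List.mem_range.2 (idx p).isLt)
    rw [Nat.beq_eq] at this
    simp only [Val, Pi.neg_apply]
    omega

theorem bar_ne_zero {x : GolayPt → ℤ} (hx : IsRoot x) : bar x ≠ 0 := by
  obtain ⟨a, ha, rfl⟩ := complete hx
  rw [bar_tab ha]
  intro e
  have := congrArg CfsgLib.SpSixTwo.enc e
  rw [CfsgLib.SpSixTwo.enc_vec _ (tab_spec ha).2.2.1] at this
  exact (tab_spec ha).2.2.2 (this.trans (by decide))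

end CfsgLib.Leech.Co2Cent
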