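/-
The centraliser of an involution of the second Conway group and its action on the classes of roots.
-/
import Cfsg.Agent.Leech.Co2Cent.Roots
import Cfsg.Agent.Leech.Co2Mult

set_option autoImplicit false
set_option maxRecDepth 100000

namespace CfsgLib.Leech.Co2Cent

open Cfsg CfsgLib.Golay Matrix CfsgLib.Leech.Co3Mult MulAction
open CfsgLib.SpSixTwo (V6 G0 pos)
open CfsgLib

/-- The complement of the octad. -/
def flipSet : Finset GolayPt := Finset.univ \ O

theorem flipSet_mem : flipSet ∈ supports (golayCode : Set (GolayPt → ZMod 2)) := by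
  rw [mem_supports_iff]; decide +kernel

theorem mem_flipSet {p : GolayPt} : p ∈ flipSet ↔ p ∉ O := by simp [flipSet]

/-- The sign change outside the octad. -/
def tt : Co0 := mono (one_mem M24) flipSet_mem

theorem tt_apply (v : leechLattice) (p : GolayPt) : (tt • v).1 p = if p ∈ O then v.1 p else -v.1 p := by
  show ((mono (one_mem M24) flipSet_mem).1 v).1 p = _
  rw [mono_apply]
  by_cases h : p ∈ O
  · rw [signedPerm, if_neg (fun hc => mem_flipSet.1 hc h), if_pos h, perm_one_symm]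
  · rw [signedPerm, if_pos (mem_flipSet.2 h), if_neg h, perm_one_symm]

theorem tt_fix_iff {v : leechLattice} : tt • v = v ↔ Supp v.1 := by
  constructor
  · intro h p hp
    have := congrArg (fun u : leechLattice => u.1 p) h
    simp only [tt_apply, hp, if_false] at this
    omega
  · intro h
    refine Subtype.ext (funext fun p => ?_)
    rw [tt_apply]
    by_cases hp : p ∈ O
    · rw [if_pos hp]
    · rw [if_neg hp, h p hp, neg_zero]

theorem vecU_supp : Supp Spor.vecU := by unfold Supp; decide +kernel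

theorem tt_fix_u : tt • Spor.leechU = Spor.leechU := tt_fix_iff.2 vecU_supp

theorem tt_mem_co2 : tt.1 ∈ Spor.Co2 :=
  Subgroup.mem_inf.2 ⟨tt.2, mem_stabilizer_iff.2 tt_fix_u⟩

/-- The involution. -/
def tC : ↥Spor.Co2 := ⟨tt.1, tt_mem_co2⟩

/-- Its centraliser. -/
abbrev CG : Subgroup ↥Spor.Co2 := Subgroup.centralizer ({tC} : Set ↥Spor.Co2)

/-- An element as a lattice automorphism. -/
def up : CG →* Co0 where
  toFun g := ⟨g.1.1, (Subgroup.mem_inf.1 g.1.2).1⟩
  map_one' := rfl
  map_mul' _ _ := rfl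

theorem up_injective : Function.Injective up := fun a b h =>
  Subtype.ext (Subtype.ext (congrArg (fun k : Co0 => k.1) h :))

theorem up_fix (g : CG) : up g • Spor.leechU = Spor.leechU :=
  (show g.1.1 Spor.leechU = Spor.leechU from mem_stabilizer_iff.1 (Subgroup.mem_inf.1 g.1.2).2)

theorem up_comm (g : CG) : up g * tt = tt * up g := by
  have h := Subgroup.mem_centralizer_iff.1 g.2 tC rfl
  exact Subtype.ext (congrArg (fun k : ↥Spor.Co2 => k.1) h).symm

theorem exists_of {x : Co0} (hu : x • Spor.leechU = Spor.leechU) (hc : x * tt = tt * x) :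
    ∃ g : CG, up g = x := by
  refine ⟨⟨⟨x.1, Subgroup.mem_inf.2 ⟨x.2, mem_stabilizer_iff.2 hu⟩⟩, Subgroup.mem_centralizer_iff.2 ?_⟩, rfl⟩
  rintro _ rfl
  exact Subtype.ext (congrArg (fun k : Co0 => k.1) hc).symm

theorem supp_smul (g : CG) {v : leechLattice} (h : Supp v.1) : Supp (up g • v).1 := by
  rw [← tt_fix_iff, smul_smul, ← up_comm, mul_smul, tt_fix_iff.2 h]

theorem root_smul (g : CG) {v : leechLattice} (h : IsRoot v.1) : IsRoot (up g • v).1 := by
  obtain ⟨-, hs, hu, hn⟩ := h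
  refine ⟨(up g • v).2, supp_smul g hs, ?_, ?_⟩
  · have := dot_smul (up g) v Spor.leechU
    rw [up_fix] at this
    exact this.trans hu
  · rw [norm_smul]; exact hn

/-- A basis root in the lattice. -/
def bv (k : Fin 3 ⊕ Fin 3) : leechLattice := ⟨Val (bas (pos k)), (bas_spec k).1.1⟩

theorem root_bv (k : Fin 3 ⊕ Fin 3) : IsRoot (bv k).1 := (bas_spec k).1

/-- The matrix on the classes. -/
def cmat (g : CG) : Matrix (Fin 3 ⊕ Fin 3) (Fin 3 ⊕ Fin 3) (ZMod 2) :=
  Matrix.of fun i k => bar (up g • bv k).1 i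

theorem form_apply (A : Matrix (Fin 3 ⊕ Fin 3) (Fin 3 ⊕ Fin 3) (ZMod 2)) (k l : Fin 3 ⊕ Fin 3) :
    (Aᵀ * Matrix.J (Fin 3) (ZMod 2) * A) k l = Cfsg.sympForm 3 (ZMod 2) (fun i => A i k) (fun i => A i l) := by
  rw [Matrix.mul_assoc, Cfsg.sympForm]
  rfl

theorem cmat_mem (g : CG) : cmat g ∈ Matrix.symplecticGroup (Fin 3) (ZMod 2) := by
  rw [SymplecticGroup.mem_iff']
  ext k l
  have hone : ∀ m : Fin 3 ⊕ Fin 3, (fun i => (1 : Matrix (Fin 3 ⊕ Fin 3) (Fin 3 ⊕ Fin 3) (ZMod 2)) i m) =
      Pi.single m 1 := fun m => funext fun i => by rw [Matrix.one_apply, Pi.single_apply]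
  rw [form_apply]
  conv_rhs => rw [← Matrix.one_mul (Matrix.J (Fin 3) (ZMod 2)), ← Matrix.transpose_one, ← Matrix.mul_one
    ((1 : Matrix (Fin 3 ⊕ Fin 3) (Fin 3 ⊕ Fin 3) (ZMod 2))ᵀ * Matrix.J (Fin 3) (ZMod 2)), form_apply,
    hone, hone, ← (bas_spec k).2, ← (bas_spec l).2, form_bar (bas_spec k).1 (bas_spec l).1]
  show Cfsg.sympForm 3 (ZMod 2) (bar (up g • bv k).1) (bar (up g • bv l).1) = _
  rw [form_bar (root_smul g (root_bv k)) (root_smul g (root_bv l)), dot_smul]
  rfl

theorem bar_smul (g : CG) {v : leechLattice} (hv : IsRoot v.1) :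
    bar (up g • v).1 = cmat g *ᵥ bar v.1 := by
  set A : Matrix.symplecticGroup (Fin 3) (ZMod 2) := ⟨cmat g, cmat_mem g⟩
  refine CfsgLib.SpGeom.ext_form fun x => ?_
  have hx : x = cmat g *ᵥ ((A⁻¹ : Matrix.symplecticGroup (Fin 3) (ZMod 2)) : Matrix (Fin 3 ⊕ Fin 3) (Fin 3 ⊕ Fin 3) (ZMod 2)) *ᵥ x :=
    (CfsgLib.SpGeom.mulVec_inv A x).symm
  rw [hx, show Cfsg.sympForm 3 (ZMod 2) (cmat g *ᵥ bar v.1) _ = _ from CfsgLib.SpGeom.form_mulVec A _ _]
  generalize ((A⁻¹ : Matrix.symplecticGroup (Fin 3) (ZMod 2)) : Matrix (Fin 3 ⊕ Fin 3) (Fin 3 ⊕ Fin 3) (ZMod 2)) *ᵥ x = y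
  have key : ∀ k, Cfsg.sympForm 3 (ZMod 2) (bar (up g • v).1) (cmat g *ᵥ Pi.single k 1) =
      Cfsg.sympForm 3 (ZMod 2) (bar v.1) (Pi.single k 1) := fun k => by
    rw [Matrix.mulVec_single_one]
    show Cfsg.sympForm 3 (ZMod 2) (bar (up g • v).1) (bar (up g • bv k).1) = _
    rw [form_bar (root_smul g hv) (root_smul g (root_bv k)), dot_smul, ← (bas_spec k).2,
      form_bar hv (bas_spec k).1]
    rfl
  unfold Cfsg.sympForm at key ⊢
  rw [Matrix.mulVec_mulVec, Matrix.dotProduct_mulVec, Matrix.dotProduct_mulVec]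
  refine congrArg (· ⬝ᵥ y) (funext fun k => ?_)
  have := key k
  rw [Matrix.mulVec_mulVec, Matrix.dotProduct_mulVec, Matrix.dotProduct_mulVec, dotProduct_single_one,
    dotProduct_single_one] at this
  exact this

/-- The action on the classes. -/
def phi : CG →* G0 :=
  MonoidHom.mk' (fun g => ⟨cmat g, cmat_mem g⟩) fun g h => by
    refine Subtype.ext (Matrix.ext fun i k => ?_)
    show bar (up (g * h) • bv k).1 i = (cmat g * cmat h) i k
    rw [map_mul, mul_smul, bar_smul g (root_smul h (root_bv k))]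
    rfl

/-! ### Surjectivity -/

/-- The checks of a generator. -/
def genChk (n : ℕ) : Bool :=
  Co2Mult.elOk (genMats.getD n []) (genInv.getD n []) &&
    (List.range 24).all (fun j => OctStab.inPts.contains j == suppChk ((genMats.getD n []).getD j 0)) &&
    (List.range 24).all (fun j => OctStab.inPts.contains j ||
      OctStab.inPts.all fun t => Nat.beq (fld ((genMats.getD n []).getD j 0) t) 8) &&
    (List.range 6).all fun k =>
      apOk (genMats.getD n []) (bas k) && rootTab.any fun a =>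
        Nat.beq a.1 (ap (genMats.getD n []) (bas k)) && Nat.beq a.2 ((genCols.getD n []).getD k 0)

theorem gens_ok : ((List.range genMats.length).all genChk) = true := by decide +kernel

theorem exists_gen {n : ℕ} (hn : n < genMats.length) :
    ∃ g : CG, phi g = CfsgLib.SpSixTwo.el (genCols.getD n []) := by
  have h := List.all_eq_true.1 gens_ok n (List.mem_range.2 hn)
  simp only [genChk, Bool.and_eq_true, List.all_eq_true (l := List.range 24), List.all_eq_true (l := List.range 6),
    List.mem_range, Bool.or_eq_true, beq_iff_eq] at h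
  obtain ⟨⟨⟨he, hin⟩, hout⟩, hk⟩ := h
  set M := genMats.getD n []
  obtain ⟨x, hx⟩ := Co2Mult.exists_elt he
  have hM : wfM M = true := by
    have := he
    simp only [Co2Mult.elOk, matOk, Bool.and_eq_true] at this
    exact this.1.1.1.1.1.1.1.1
  have hblock : ∀ p q : GolayPt, (p ∈ O ↔ q ∉ O) → ent M p q = 0 := by
    intro p q hpq
    have hq := (idx q).isLt
    by_cases hqO : q ∈ O
    · have hc : OctStab.inPts.contains (idx q).val = true := List.contains_iff_mem.2 (OctStab.mem_inPts.1 hqO)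
      have h1 : suppChk (M.getD (idx q).val 0) = true := (hin _ hq).symm.trans hc
      exact suppChk_spec h1 p (fun hp => (hpq.1 hp) hqO)
    · have hc : ¬ OctStab.inPts.contains (idx q).val = true := fun hc =>
        hqO (OctStab.mem_inPts.2 (List.contains_iff_mem.1 hc))
      have h1 := List.all_eq_true.1 ((hout _ hq).resolve_left hc) _ (OctStab.mem_inPts.1 (hpq.2 hqO))
      rw [Nat.beq_eq] at h1
      simp only [ent, Val, h1]
      rfl
  have hcomm : (x : Co0) * tt = tt * (x : Co0) := by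
    refine ext_eights fun i => ?_
    rw [mul_smul, mul_smul]
    refine Subtype.ext (funext fun p => ?_)
    have e1 := hx (tt • eight i) p
    have e2 := hx (eight i) p
    rw [tt_apply]
    rw [lin_apply] at e1 e2
    have hs : ∀ q, (tt • eight i).1 q * ent M p q = (if p ∈ O then 1 else -1) * ((eight i).1 q * ent M p q) := by
      intro q
      rw [tt_apply]
      by_cases hp : p ∈ O <;> by_cases hq : q ∈ O
      · simp [hp, hq]
      · simp [hblock p q (by tauto)]
      · simp [hblock p q (by tauto)]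
      · simp [hp, hq]
    rw [Finset.sum_congr rfl fun q _ => hs q, ← Finset.mul_sum, ← e2] at e1
    split_ifs with hp <;> simp only [hp, if_true, if_false] at e1 <;> omega
  have hfix : (x : Co0) • Spor.leechU = Spor.leechU := mem_stabilizer_iff.1 x.2
  obtain ⟨g, hg⟩ := exists_of hfix hcomm
  refine ⟨g, ?_⟩
  have hcol : ∀ k : Fin 3 ⊕ Fin 3, bar (up g • bv k).1 = SpSixTwo.vec ((genCols.getD n []).getD (pos k) 0) := by
    intro k
    obtain ⟨hap, ha'⟩ := hk (pos k) (pos_lt k)
    obtain ⟨a, ha, e⟩ := List.any_eq_true.1 ha'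
    simp only [Bool.and_eq_true, Nat.beq_eq] at e
    obtain ⟨b, hb, eb⟩ := List.any_eq_true.1 (List.all_eq_true.1 bas_root_ok (pos k) (List.mem_range.2 (pos_lt k)))
    simp only [Bool.and_eq_true, Nat.beq_eq] at eb
    have hw : wf (bas (pos k)) = true := eb.1 ▸ (tab_spec hb).1
    have hv : (up g • bv k).1 = Val a.1 := funext fun p => by
      have h1 := hx (bv k) p
      rw [show (bv k).1 = Val (bas (pos k)) from rfl, ← (ap_spec hM hw hap).2 p, ← e.1, ← hg] at h1
      omega
    rw [hv, bar_tab ha, e.2]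
  have hmat : CfsgLib.SpSixTwo.toM (genCols.getD n []) = cmat g :=
    Matrix.ext fun i k => (congrFun (hcol k) i).symm
  have hmem : CfsgLib.SpSixTwo.toM (genCols.getD n []) * Matrix.J (Fin 3) (ZMod 2) *
      (CfsgLib.SpSixTwo.toM (genCols.getD n []))ᵀ = Matrix.J (Fin 3) (ZMod 2) := by
    rw [hmat]; exact SymplecticGroup.mem_iff.1 (cmat_mem g)
  rw [CfsgLib.SpSixTwo.el, dif_pos hmem]
  exact Subtype.ext hmat.symm

/-- The code of the image under a transvection. -/
def tvAct (x y : ℕ) : ℕ := bif Nat.beq (formN y x % 2) 1 then y ^^^ x else y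

/-- The word checks. -/
def wordsChk : Bool :=
  genCols.all CfsgLib.SpSixTwo.good && Nat.beq genCols.length genMats.length &&
    tvWords.all (fun a => Nat.blt a.1 64 && a.2.all (fun i => Nat.blt i genCols.length) &&
      (List.range 64).all fun y => Nat.beq (CfsgLib.SpSixTwo.apw genCols a.2 y) (tvAct a.1 y)) &&
    (List.range 64).all fun x => Nat.beq x 0 || (tvWords.any fun a => Nat.beq a.1 x)

theorem words_ok : wordsChk = true := by decide +kernel

theorem vec_tvAct : ∀ x < 64, ∀ y < 64,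
    SpSixTwo.vec y + (1 * Cfsg.sympForm 3 (ZMod 2) (SpSixTwo.vec y) (SpSixTwo.vec x)) • SpSixTwo.vec x = SpSixTwo.vec (tvAct x y) := by decide +kernel

theorem phi_surjective : Function.Surjective phi := by
  rw [← MonoidHom.range_eq_top]
  refine CfsgLib.SpGeom.eq_top_of_tv _ fun w c => ?_
  have hc : c = 0 ∨ c = 1 := by revert c; decide
  rcases hc with rfl | rfl
  · rw [CfsgLib.SpGeom.tv_zero]; exact one_mem _
  have h := words_ok
  simp only [wordsChk, Bool.and_eq_true, List.all_eq_true (l := tvWords), List.all_eq_true (l := List.range 64),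
    List.mem_range, Nat.beq_eq, Nat.blt_eq, Bool.or_eq_true] at h
  obtain ⟨⟨⟨hgood, hlen⟩, hW⟩, hall⟩ := h
  by_cases hw0 : CfsgLib.SpSixTwo.enc w = 0
  · have : CfsgLib.SpGeom.tv w (1 : ZMod 2) = 1 := by
      refine CfsgLib.SpGeom.ext_mulVec fun x => ?_
      rw [← CfsgLib.SpSixTwo.vec_enc w, hw0, CfsgLib.SpSixTwo.vec_zero, CfsgLib.SpGeom.tv_mulVec, smul_zero, add_zero]
      exact (Matrix.one_mulVec x).symm
    rw [this]; exact one_mem _
  obtain ⟨a, ha, e⟩ := List.any_eq_true.1 ((hall _ (CfsgLib.SpSixTwo.enc_lt w)).resolve_left hw0)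
  rw [Nat.beq_eq] at e
  obtain ⟨⟨ha64, hidx⟩, hact⟩ := hW a ha
  simp only [List.all_eq_true, Nat.blt_eq] at hidx
  have hwe : CfsgLib.SpGeom.tv w (1 : ZMod 2) = CfsgLib.M23Coh.wordE (CfsgLib.SpSixTwo.gel genCols) a.2 := by
    refine CfsgLib.SpGeom.ext_mulVec fun y => ?_
    rw [← CfsgLib.SpSixTwo.vec_enc y, (CfsgLib.SpSixTwo.apw_spec hgood a.2 hidx _ (CfsgLib.SpSixTwo.enc_lt y)).1,
      hact _ (CfsgLib.SpSixTwo.enc_lt y), CfsgLib.SpGeom.tv_mulVec, ← CfsgLib.SpSixTwo.vec_enc w, ← e]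
    exact vec_tvAct _ ha64 _ (CfsgLib.SpSixTwo.enc_lt y)
  rw [hwe]
  have hmem : ∀ l : List ℕ, (∀ i ∈ l, i < genCols.length) →
      CfsgLib.M23Coh.wordE (CfsgLib.SpSixTwo.gel genCols) l ∈ phi.range := by
    intro l
    induction l with
    | nil => intro _; exact one_mem _
    | cons i r ih =>
      intro hl
      exact mul_mem (exists_gen (n := i) (hlen ▸ hl i List.mem_cons_self))
        (ih fun j hj => hl j (List.mem_cons_of_mem _ hj))
  exact hmem _ hidx

end CfsgLib.Leech.Co2Cent
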