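/-
The elements acting trivially on the classes form an extraspecial group of order `2 ^ 9`.
-/
import Cfsg.Agent.Leech.Co2Cent.Group
import Cfsg.Agent.Golay.OctStruct
import Cfsg.Agent.SymplecticType.HallStructure

set_option autoImplicit false
set_option maxRecDepth 100000

namespace CfsgLib.Leech.Co2Cent

open Cfsg CfsgLib.Golay Matrix CfsgLib.Leech.Co3Mult MulAction
open scoped Pointwise commutatorElement symmDiff

/-- The kernel. -/
abbrev KQ : Subgroup CG := phi.ker

theorem root_pm {g : CG} (hg : g ∈ KQ) {v : leechLattice} (hv : IsRoot v.1) :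
    up g • v = v ∨ up g • v = -v := by
  have h := bar_smul g hv
  rw [show cmat g = 1 from congrArg Subtype.val (MonoidHom.mem_ker.1 hg), Matrix.one_mulVec] at h
  rcases eq_or_neg_of_bar (root_smul g hv) hv h with e | e
  · exact Or.inl (Subtype.ext e)
  · exact Or.inr (Subtype.ext e)

/-- A root linked to every root by two steps. -/
def r0 : ℕ := (rootTab.getD 0 (0, 0)).1

theorem linked_ok : (rootTab.all fun a => rootTab.any fun b =>
    decide (dot8 a.1 b.1 ≠ 0) && decide (dot8 b.1 r0 ≠ 0)) = true := by decide +kernel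

theorem r0_mem : (rootTab.getD 0 (0, 0)) ∈ rootTab := by
  rw [List.getD_eq_getElem _ _ (by decide +kernel)]
  exact List.getElem_mem _

/-- The first root. -/
def v0 : leechLattice := ⟨Val r0, (tab_spec r0_mem).2.1.1⟩

theorem ne_neg_self {v : leechLattice} (hv : IsRoot v.1) : v ≠ -v := fun e => by
  obtain ⟨-, -, -, hn⟩ := hv
  have h0 : v.1 = 0 := funext fun p => by
    have := congrArg (fun u : leechLattice => u.1 p) e
    simp only [AddSubgroup.coe_neg, Pi.neg_apply] at this
    simp only [Pi.zero_apply]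
    omega
  rw [h0] at hn
  simp [sqNorm] at hn

/-- A single sign. -/
theorem root_sign {g : CG} (hg : g ∈ KQ) :
    (∀ v : leechLattice, IsRoot v.1 → up g • v = v) ∨ (∀ v : leechLattice, IsRoot v.1 → up g • v = -v) := by
  have hv0 : IsRoot v0.1 := (tab_spec r0_mem).2.1
  have hneg : ∀ a b : GolayPt → ℤ, dotInt (-a) b = -dotInt a b ∧ dotInt a (-b) = -dotInt a b := fun a b => by
    simp [dotInt, Finset.sum_neg_distrib]
  have step : ∀ v w : leechLattice, IsRoot v.1 → IsRoot w.1 → dotInt v.1 w.1 ≠ 0 →
      (up g • v = v ↔ up g • w = w) := by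
    intro v w hv hw hd
    have h := dot_smul (up g) v w
    constructor <;> intro e
    · refine (root_pm hg hw).resolve_right fun e' => hd ?_
      rw [e, e', AddSubgroup.coe_neg, (hneg _ _).2] at h
      omega
    · refine (root_pm hg hv).resolve_right fun e' => hd ?_
      rw [e, e', AddSubgroup.coe_neg, (hneg _ _).1] at h
      omega
  have all : ∀ v : leechLattice, IsRoot v.1 → (up g • v = v ↔ up g • v0 = v0) := by
    intro v hv
    obtain ⟨a, ha, e⟩ := complete hv
    obtain ⟨b, hb, hb'⟩ := List.any_eq_true.1 (List.all_eq_true.1 linked_ok a ha)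
    simp only [Bool.and_eq_true, decide_eq_true_eq] at hb'
    let w : leechLattice := ⟨Val b.1, (tab_spec hb).2.1.1⟩
    refine (step v w hv (tab_spec hb).2.1 ?_).trans (step w v0 (tab_spec hb).2.1 hv0 ?_)
    · rw [e, dot8_spec (tab_spec ha).2.1.2.1]; exact hb'.1
    · show dotInt (Val b.1) (Val r0) ≠ 0
      rw [dot8_spec (tab_spec hb).2.1.2.1]; exact hb'.2
  rcases root_pm hg hv0 with e | e
  · exact Or.inl fun v hv => (all v hv).2 e
  · refine Or.inr fun v hv => (root_pm hg hv).resolve_left fun e' => ne_neg_self hv0 ?_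
    exact ((all v hv).1 e').symm.trans e

theorem eight_ok : (eightTab.all fun x =>
    ((rootTab.any fun a => Nat.beq a.1 x.2.1) || Nat.beq x.2.1 Co2Mult.uPk) &&
      ((rootTab.any fun a => Nat.beq a.1 x.2.2) || Nat.beq x.2.2 Co2Mult.uPk) &&
      (List.range 24).all fun t => Nat.beq (fld x.2.1 t + fld x.2.2 t) (bif Nat.beq t x.1 then 24 else 16)) = true ∧
    (OctStab.inPts.all fun t => eightTab.any fun x => Nat.beq x.1 t) = true := by decide +kernel

theorem eight_split {p : GolayPt} (hp : p ∈ O) : ∃ a b : leechLattice,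
    eight p = a + b ∧ (IsRoot a.1 ∨ a = Spor.leechU) ∧ (IsRoot b.1 ∨ b = Spor.leechU) := by
  obtain ⟨x, hx, e⟩ := List.any_eq_true.1 (List.all_eq_true.1 eight_ok.2 _ (OctStab.mem_inPts.1 hp))
  rw [Nat.beq_eq] at e
  have h := List.all_eq_true.1 eight_ok.1 x hx
  simp only [Bool.and_eq_true, Bool.or_eq_true] at h
  have part : ∀ y : ℕ, ((rootTab.any fun a => Nat.beq a.1 y) = true ∨ Nat.beq y Co2Mult.uPk = true) →
      ∃ a : leechLattice, a.1 = Val y ∧ (IsRoot a.1 ∨ a = Spor.leechU) := by
    intro y hy
    rcases hy with h | h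
    · obtain ⟨a, ha, ea⟩ := List.any_eq_true.1 h
      rw [Nat.beq_eq] at ea
      exact ⟨⟨Val y, ea ▸ (tab_spec ha).2.1.1⟩, rfl, Or.inl (ea ▸ (tab_spec ha).2.1)⟩
    · rw [Nat.beq_eq] at h
      exact ⟨Spor.leechU, h ▸ vecU_val, Or.inr rfl⟩
  obtain ⟨a, ea, ha⟩ := part _ h.1.1
  obtain ⟨b, eb, hb⟩ := part _ h.1.2
  refine ⟨a, b, Subtype.ext (funext fun q => ?_), ha, hb⟩
  have hq := List.all_eq_true.1 h.2 _ (List.mem_range.2 (idx q).isLt)
  rw [Nat.beq_eq] at hq
  rw [AddSubgroup.coe_add, ea, eb]
  simp only [Pi.add_apply, Val, eight, Pi.single_apply]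
  by_cases hqp : q = p
  · subst hqp
    rw [show Nat.beq (idx q).val x.1 = true by rw [Nat.beq_eq, e], cond_true] at hq
    rw [if_pos rfl]; omega
  · rw [show Nat.beq (idx q).val x.1 = false from Bool.eq_false_iff.2 fun c => hqp (idx_injective (Fin.ext (by
      rw [Nat.beq_eq, e] at c; exact c))), cond_false] at hq
    rw [if_neg hqp]; omega

theorem point_facts : (some 0 : GolayPt) ∈ O ∧ (none : GolayPt) ∈ O ∧ (some 0 : GolayPt) ≠ none ∧
    Spor.vecU = Pi.single (some 0 : GolayPt) 4 + Pi.single none 4 := by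
  refine ⟨by decide +kernel, by decide +kernel, by decide, funext fun p => ?_⟩
  revert p
  decide +kernel

/-- The sign on the roots is positive. -/
theorem fix_eight {g : CG} (hg : g ∈ KQ) : ∀ p ∈ O, up g • eight p = eight p := by
  rcases root_sign hg with hpos | hneg
  · intro p hp
    obtain ⟨a, b, e, ha, hb⟩ := eight_split hp
    have : ∀ v : leechLattice, IsRoot v.1 ∨ v = Spor.leechU → up g • v = v := fun v hv => by
      rcases hv with h | h
      · exact hpos v h
      · rw [h, up_fix]
    rw [e, smul_add', this a ha, this b hb]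
  exfalso
  obtain ⟨h0, h23, hne, hu⟩ := point_facts
  -- the reflection in the fixed vector
  let R : (GolayPt → ℤ) → GolayPt → ℤ := fun x p => (dotInt x Spor.vecU / 16) * Spor.vecU p - x p
  have hR : ∀ p ∈ O, (up g • eight p).1 =
      fun q => (if q = (some 0 : GolayPt) ∨ q = none then
        (if p = (some 0 : GolayPt) ∨ p = none then 8 else 0) else 0) - (eight p).1 q := by
    intro p hp
    obtain ⟨a, b, e, ha, hb⟩ := eight_split hp
    have act : ∀ v : leechLattice, IsRoot v.1 ∨ v = Spor.leechU → (up g • v).1 = R v.1 := fun v hv => by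
      rcases hv with h | h
      · rw [hneg v h, AddSubgroup.coe_neg]
        funext q
        simp [R, h.2.2.1]
      · rw [h, up_fix]
        funext q
        have e32 : dotInt Spor.vecU Spor.vecU = 32 := by decide +kernel
        simp only [R]
        rw [show (Spor.leechU : leechLattice).1 = Spor.vecU from rfl, e32]
        omega
    have hd : ∀ v : leechLattice, IsRoot v.1 ∨ v = Spor.leechU → dotInt v.1 Spor.vecU % 16 = 0 := fun v hv => by
      rcases hv with h | h
      · rw [h.2.2.1]; rfl
      · rw [h]; decide +kernel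
    have hlin : dotInt (a.1 + b.1) Spor.vecU = dotInt a.1 Spor.vecU + dotInt b.1 Spor.vecU := by
      simp [dotInt, add_mul, Finset.sum_add_distrib]
    have hdot : dotInt (eight p).1 Spor.vecU = 8 * Spor.vecU p := by
      simp [dotInt, eight, Pi.single_apply]
    funext q
    have e' : (eight p).1 = a.1 + b.1 := congrArg Subtype.val e
    rw [e, smul_add', AddSubgroup.coe_add, act a ha, act b hb, ← e, Pi.add_apply]
    show (dotInt a.1 Spor.vecU / 16) * Spor.vecU q - a.1 q + ((dotInt b.1 Spor.vecU / 16) * Spor.vecU q - b.1 q) = _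
    have h16 : dotInt a.1 Spor.vecU / 16 + dotInt b.1 Spor.vecU / 16 = 8 * Spor.vecU p / 16 := by
      have := hd a ha; have := hd b hb
      rw [← e', hdot] at hlin
      omega
    have hval : ∀ r, Spor.vecU r = if r = (some 0 : GolayPt) ∨ r = none then 4 else 0 := fun r => by
      simp only [Spor.vecU]
      by_cases h1 : r = none <;> by_cases h2 : r = some 0 <;> simp [h1, h2]
    rw [congrFun e' q, Pi.add_apply]
    rw [show ∀ c d : ℤ, c * Spor.vecU q - a.1 q + (d * Spor.vecU q - b.1 q) =
      (c + d) * Spor.vecU q - (a.1 q + b.1 q) from fun c d => by ring, h16, hval q, hval p]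
    by_cases c1 : q = (some 0 : GolayPt) ∨ q = none <;> by_cases c2 : p = (some 0 : GolayPt) ∨ p = none <;>
      simp [c1, c2]
  have hcross : up g ∈ crossStab := mem_crossStab_of_eight (i := (some 0 : GolayPt)) (by
    refine ⟨none, 8, Or.inl rfl, ?_⟩
    rw [hR _ h0]
    funext q
    simp only [eight, Pi.single_apply]
    by_cases c1 : q = (some 0 : GolayPt)
    · subst c1; simp
    · by_cases c2 : q = none <;> simp [c1, c2, hne.symm])
  obtain ⟨σ, hσ, c, hc, e⟩ := stab_mono (up g) hcross
  have hσO : ∀ p ∈ O, σ p = Equiv.swap (some 0 : GolayPt) none p := by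
    intro p hp
    have h1 := congrFun (hR p hp) (Equiv.swap (some 0 : GolayPt) none p)
    by_contra hc'
    rw [e] at h1
    have hz : ((mono hσ hc).1 (eight p)).1 (Equiv.swap (some 0 : GolayPt) none p) = 0 := by
      rw [mono_apply, signedPerm]
      have : (eight p).1 (σ.symm (Equiv.swap (some 0 : GolayPt) none p)) = 0 :=
        Pi.single_eq_of_ne (fun h => hc' (by rw [← h, σ.apply_symm_apply, h])) _
      split_ifs <;> simp [this]
    rw [show ((mono hσ hc) • eight p).1 = ((mono hσ hc).1 (eight p)).1 from rfl, hz] at h1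
    revert h1
    simp only [eight, Pi.single_apply]
    by_cases c1 : p = (some 0 : GolayPt)
    · subst c1; simp [hne.symm]
    · by_cases c2 : p = none
      · subst c2; simp [hne]
      · rw [Equiv.swap_apply_of_ne_of_ne c1 c2]; simp [c1, c2]
  have hstab : σ • O = O := by
    refine Finset.eq_of_subset_of_card_le (fun x hx => ?_) (Finset.card_smul_finset σ O).ge
    obtain ⟨y, hy, rfl⟩ := Finset.mem_smul_finset.1 hx
    rw [Equiv.Perm.smul_def, hσO y hy, Equiv.swap_apply_def]
    split_ifs <;> assumption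
  have hmem : OctStruct.restrict O ⟨σ, hσ, hstab⟩ ∈ (OctStruct.restrict O).range := ⟨_, rfl⟩
  rw [OctStruct.range_restrict OctStab.O_mem, Equiv.Perm.mem_alternatingGroup,
    show OctStruct.restrict O ⟨σ, hσ, hstab⟩ = Equiv.swap (⟨some 0, h0⟩ : ↥O) ⟨none, h23⟩ from
      Equiv.ext fun x => Subtype.ext (by
        show σ x.1 = _
        rw [hσO x.1 x.2, Equiv.swap_apply_def, Equiv.swap_apply_def]
        simp only [Subtype.ext_iff]
        split_ifs <;> rfl),
    Equiv.Perm.sign_swap (fun h => hne (congrArg Subtype.val h))] at hmem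
  exact absurd hmem (by decide)

/-- The allowed sign sets. -/
def cset (j : Fin 32) : Finset GolayPt := toSet (maskTab.getD j.val 0)

/-- The allowed permutations. -/
noncomputable def perm16 (i : Fin 16) : Equiv.Perm GolayPt := permOf (OctStab.transl.getD i.val [])

theorem mask_ok : ((List.range 32).all fun j => inCode (maskTab.getD j 0) &&
      Nat.beq (maskTab.getD j 0 &&& octO) 0 && Nat.blt (maskTab.getD j 0) (2 ^ 24)) = true ∧
    maskTab.length = 32 ∧ maskTab.Nodup ∧
    (codeList.all fun m => bif Nat.beq (m &&& octO) 0 then maskTab.elem m else true) = true := by decide +kernel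

theorem cset_mem (j : Fin 32) : cset j ∈ supports (golayCode : Set (GolayPt → ZMod 2)) ∧ Disjoint (cset j) O := by
  have h := List.all_eq_true.1 mask_ok.1 j.val (List.mem_range.2 j.isLt)
  simp only [Bool.and_eq_true, Nat.beq_eq, Nat.blt_eq] at h
  refine ⟨by rw [mem_supports_iff, cset, mask_toSet h.2]; exact h.1.1, Finset.disjoint_left.2 fun p hp ho => ?_⟩
  rw [cset, mem_toSet] at hp
  rw [mem_toSet] at ho
  have := congrArg (fun m : ℕ => m.testBit (idx p).val) h.1.2
  simp only [Nat.testBit_and, hp, ho, Bool.and_self, Nat.zero_testBit] at this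
  exact Bool.noConfusion this

theorem transl_get (i : Fin 16) : OctStab.transl.getD i.val [] ∈ OctStab.transl := by
  rw [List.getD_eq_getElem _ _ (by rw [OctStruct.transl_data.1]; exact i.isLt)]
  exact List.getElem_mem _

theorem perm16_spec (i : Fin 16) : perm16 i ∈ M24 ∧ ∀ p ∈ O, perm16 i p = p :=
  (OctStab.transl_mem (transl_get i)).2

/-- The elements of the kernel as monomials. -/
noncomputable def kel (x : Fin 16 × Fin 32) : Co0 := mono (perm16_spec x.1).1 (cset_mem x.2).1

theorem symm_fix {i : Fin 16} {p : GolayPt} (hp : p ∈ O) : (perm16 i).symm p = p :=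
  (Equiv.symm_apply_eq _).2 ((perm16_spec i).2 p hp).symm

theorem symm_notMem {i : Fin 16} {p : GolayPt} (hp : p ∉ O) : (perm16 i).symm p ∉ O := fun h =>
  hp (by have := (perm16_spec i).2 _ h; rw [Equiv.apply_symm_apply] at this; exact this ▸ h)

theorem kel_fix (x : Fin 16 × Fin 32) {v : leechLattice} (hv : Supp v.1) : kel x • v = v := by
  refine Subtype.ext (funext fun p => ?_)
  show ((kel x).1 v).1 p = v.1 p
  rw [kel, mono_apply, signedPerm]
  by_cases hp : p ∈ O
  · rw [if_neg (Finset.disjoint_right.1 (cset_mem x.2).2 hp), symm_fix hp]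
  · rw [hv p hp, hv _ (symm_notMem hp)]; simp

theorem kel_comm (x : Fin 16 × Fin 32) : kel x * tt = tt * kel x := by
  refine Subtype.ext (Equiv.ext fun v => Subtype.ext (funext fun p => ?_))
  show ((kel x).1 (tt • v)).1 p = (tt • ((kel x • v))).1 p
  rw [tt_apply, show (kel x • v).1 = ((kel x).1 v).1 from rfl, kel, mono_apply, mono_apply]
  simp only [signedPerm, tt_apply]
  by_cases hp : p ∈ O
  · simp [symm_fix hp, hp]
  · simp only [symm_notMem hp, hp, if_false]
    split_ifs <;> simp

theorem exists_kel {g : CG} (hg : g ∈ KQ) : ∃ x, up g = kel x := by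
  have h8 := fix_eight hg
  obtain ⟨h0, -, -, -⟩ := point_facts
  have hcross : up g ∈ crossStab := mem_crossStab_of_eight (i := (some 0 : GolayPt)) (by
    rw [h8 _ h0]; exact eight_mem_cross _)
  obtain ⟨σ, hσ, c, hc, e⟩ := stab_mono (up g) hcross
  have hfix : ∀ p ∈ O, σ p = p ∧ p ∉ c := by
    intro p hp
    have h1 := h8 p hp
    rw [e] at h1
    have h2 := congrArg (fun u : leechLattice => u.1 p) h1
    change signedPerm σ c (Pi.single p 8) p = (Pi.single p 8 : GolayPt → ℤ) p at h2
    rw [signedPerm, Pi.single_eq_same] at h2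
    by_cases hs : σ.symm p = p
    · refine ⟨((Equiv.symm_apply_eq σ).1 hs).symm, fun hpc => ?_⟩
      rw [if_pos hpc, hs, Pi.single_eq_same] at h2
      omega
    · exfalso
      rw [Pi.single_eq_of_ne hs, neg_zero] at h2
      split_ifs at h2 <;> omega
  obtain ⟨t, ht, rfl⟩ := OctStab.eq_transl hσ fun p hp => (hfix p hp).1
  obtain ⟨i, hi, hti⟩ := List.getElem_of_mem ht
  have hi16 : i < 16 := OctStruct.transl_data.1 ▸ hi
  have hcm := mem_supports_iff.1 hc
  have hlt := mask_lt c
  have hdis : mask c &&& octO = 0 := by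
    refine Nat.eq_of_testBit_eq fun k => ?_
    rw [Nat.testBit_and, Nat.zero_testBit]
    by_cases hk : k < 24
    · by_cases hcc : ptN k ∈ c
      · rw [Bool.and_eq_false_iff]
        exact Or.inr (Bool.eq_false_iff.2 fun hb => by
          exact (hfix (ptN k) (mem_toSet.2 (by rw [idx_ptN hk]; exact hb))).2 hcc)
      · have := testBit_mask c (ptN k)
        rw [idx_ptN hk] at this
        rw [this, decide_eq_false hcc, Bool.false_and]
    · rw [Nat.testBit_lt_two_pow (lt_of_lt_of_le hlt (Nat.pow_le_pow_right (by norm_num) (not_lt.1 hk))),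
        Bool.false_and]
  have hm := List.all_eq_true.1 mask_ok.2.2.2 (mask c) (mem_codeList.2 ⟨hcm, hlt⟩)
  rw [show Nat.beq (mask c &&& octO) 0 = true by rw [Nat.beq_eq]; exact hdis, cond_true, List.elem_iff] at hm
  obtain ⟨j, hj, hje⟩ := List.getElem_of_mem hm
  refine ⟨(⟨i, hi16⟩, ⟨j, mask_ok.2.1 ▸ hj⟩), e.trans (mono_congr ?_ ?_)⟩
  · show permOf t = permOf (OctStab.transl.getD i [])
    rw [List.getD_eq_getElem _ _ hi, hti]
  · show c = toSet (maskTab.getD j 0)
    rw [List.getD_eq_getElem _ _ hj, hje, toSet_mask]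

theorem kel_mem (x : Fin 16 × Fin 32) : ∃ g : CG, g ∈ KQ ∧ up g = kel x := by
  obtain ⟨g, hg⟩ := exists_of (kel_fix x vecU_supp) (kel_comm x)
  refine ⟨g, MonoidHom.mem_ker.2 (Subtype.ext (Matrix.ext fun i k => ?_)), hg⟩
  show bar (up g • bv k).1 i = (1 : Matrix (Fin 3 ⊕ Fin 3) (Fin 3 ⊕ Fin 3) (ZMod 2)) i k
  rw [hg, kel_fix x (root_bv k).2.1]
  rw [show bar (bv k).1 = Pi.single k 1 from (bas_spec k).2, Matrix.one_apply, Pi.single_apply]

theorem perm16_injective : Function.Injective perm16 := fun i j h => by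
  have hd := OctStruct.transl_data
  have hi : i.val < OctStab.transl.length := by rw [hd.1]; exact i.isLt
  have hj : j.val < OctStab.transl.length := by rw [hd.1]; exact j.isLt
  have e := congrArg (fun s : Equiv.Perm GolayPt => (idx (s (ptN 1))).val) h
  simp only [perm16, idx_permOf (OctStab.transl_mem (transl_get _)).1, idx_ptN (show 1 < 24 by omega)] at e
  rw [List.getD_eq_getElem _ _ hi, List.getD_eq_getElem _ _ hj] at e
  have h2 : (OctStab.transl.map fun t => t.getD 1 0)[i.val]'(by simpa using hi) =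
      (OctStab.transl.map fun t => t.getD 1 0)[j.val]'(by simpa using hj) := by simpa using e
  exact Fin.ext ((List.Nodup.getElem_inj_iff hd.2.1).1 h2)

theorem kel_injective : Function.Injective kel := fun x y h => by
  obtain ⟨h1, h2⟩ := mono_injective _ _ _ _ h
  refine Prod.ext (perm16_injective h1) (Fin.ext ?_)
  have hx : x.2.val < maskTab.length := by rw [mask_ok.2.1]; exact x.2.isLt
  have hy : y.2.val < maskTab.length := by rw [mask_ok.2.1]; exact y.2.isLt
  have e := congrArg mask h2
  have hlt : ∀ j : Fin 32, maskTab.getD j.val 0 < 2 ^ 24 := fun j => by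
    have := List.all_eq_true.1 mask_ok.1 j.val (List.mem_range.2 j.isLt)
    simp only [Bool.and_eq_true, Nat.blt_eq] at this
    exact this.2
  simp only [cset, mask_toSet (hlt _)] at e
  rw [List.getD_eq_getElem _ _ hx, List.getD_eq_getElem _ _ hy] at e
  exact (List.Nodup.getElem_inj_iff mask_ok.2.2.1).1 e

/-- The kernel as a product of two lists. -/
noncomputable def kEquiv : Fin 16 × Fin 32 ≃ KQ :=
  Equiv.ofBijective (fun x => ⟨(kel_mem x).choose, (kel_mem x).choose_spec.1⟩)
    ⟨fun x y h => kel_injective (by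
      rw [← (kel_mem x).choose_spec.2, ← (kel_mem y).choose_spec.2, congrArg (fun z : KQ => up z.1) h]),
    fun g => by
      obtain ⟨x, hx⟩ := exists_kel g.2
      exact ⟨x, Subtype.ext (up_injective ((kel_mem x).choose_spec.2.trans hx.symm))⟩⟩

theorem kEquiv_up (x : Fin 16 × Fin 32) : up (kEquiv x).1 = kel x := (kel_mem x).choose_spec.2

theorem card_KQ : Nat.card KQ = 2 ^ 9 := by
  rw [← Nat.card_congr kEquiv]
  simp

/-- The sign change of a permutation and a sign set. -/
noncomputable def moved (i : Fin 16) (j : Fin 32) : Finset GolayPt := cset j ∆ (perm16 i • cset j)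

theorem moved_cases : ∀ (i : Fin 16) (j : Fin 32), moved i j = ∅ ∨ moved i j = flipSet := by decide +kernel

theorem moved_one : perm16 0 = 1 ∧ cset 0 = ∅ := by
  refine ⟨Equiv.ext ?_, ?_⟩ <;> decide +kernel

theorem moved_sep_perm : ∀ i : Fin 16, i ≠ 0 → ∃ j : Fin 32, moved i j = flipSet := by decide +kernel

theorem moved_sep_set : ∀ j : Fin 32, cset j = ∅ ∨ cset j = flipSet ∨ ∃ i : Fin 16, moved i j = flipSet := by
  decide +kernel

theorem perm_sq (i : Fin 16) : perm16 i * perm16 i = 1 :=
  OctStruct.transSet_sq (OctStruct.mem_transSet.2 ⟨(perm16_spec i).1, (perm16_spec i).2⟩)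

theorem perm_comm (a b : Fin 16) : perm16 a * perm16 b = perm16 b * perm16 a := by
  have hab : perm16 a * perm16 b * (perm16 a * perm16 b) = 1 :=
    OctStruct.transSet_sq (OctStruct.mem_transSet.2 ⟨mul_mem (perm16_spec a).1 (perm16_spec b).1,
      fun p hp => by rw [Equiv.Perm.mul_apply, (perm16_spec b).2 p hp, (perm16_spec a).2 p hp]⟩)
  have ha := inv_eq_of_mul_eq_one_right (perm_sq a)
  have hb := inv_eq_of_mul_eq_one_right (perm_sq b)
  have h := inv_eq_of_mul_eq_one_right hab
  rw [_root_.mul_inv_rev, ha, hb] at h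
  exact h.symm

theorem tt_kel : ∃ x, kel x = tt := by
  have h : ∃ j : Fin 32, cset j = flipSet := by decide +kernel
  obtain ⟨j, hj⟩ := h
  exact ⟨(0, j), mono_congr moved_one.1 hj⟩

/-- The involution in the kernel. -/
noncomputable def tK : KQ := kEquiv tt_kel.choose

theorem up_tK : up tK.1 = tt := (kEquiv_up _).trans tt_kel.choose_spec

theorem key_mul (a b : Fin 16 × Fin 32) :
    kel a * kel b = kel b * kel a ∨ kel a * kel b = tt * (kel b * kel a) := by
  have e1 : kel a * kel b = mono (mul_mem (perm16_spec a.1).1 (perm16_spec b.1).1)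
      (symm_mem_code (cset_mem a.2).1 (smul_mem_code (perm16_spec a.1).1 (cset_mem b.2).1)) := mono_mul ..
  have e2 : kel b * kel a = mono (mul_mem (perm16_spec b.1).1 (perm16_spec a.1).1)
      (symm_mem_code (cset_mem b.2).1 (smul_mem_code (perm16_spec b.1).1 (cset_mem a.2).1)) := mono_mul ..
  have hx : (cset a.2 ∆ (perm16 a.1 • cset b.2)) ∆ (cset b.2 ∆ (perm16 b.1 • cset a.2)) =
      moved b.1 a.2 ∆ moved a.1 b.2 := by
    simp only [moved]
    rw [symmDiff_comm (cset b.2) (perm16 b.1 • cset a.2), symmDiff_symmDiff_symmDiff_comm,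
      symmDiff_comm (perm16 a.1 • cset b.2) (cset b.2)]
  have hcases : moved b.1 a.2 ∆ moved a.1 b.2 = ∅ ∨ moved b.1 a.2 ∆ moved a.1 b.2 = flipSet := by
    rcases moved_cases b.1 a.2 with h | h <;> rcases moved_cases a.1 b.2 with h' | h' <;> rw [h, h']
    · exact Or.inl (symmDiff_self _)
    · exact Or.inr (bot_symmDiff _)
    · exact Or.inr (symmDiff_bot _)
    · exact Or.inl (symmDiff_self _)
  rw [← hx] at hcases
  rcases hcases with h | h
  · refine Or.inl ?_
    rw [e1, e2]
    exact mono_congr (perm_comm _ _) (symmDiff_eq_bot.1 h)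
  · refine Or.inr ?_
    rw [e1, e2, tt, mono_mul]
    refine mono_congr (by rw [one_mul, perm_comm]) ?_
    rw [one_smul, ← h, symmDiff_assoc, symmDiff_self, symmDiff_bot]

theorem key_sq (a : Fin 16 × Fin 32) : kel a * kel a = 1 ∨ kel a * kel a = tt := by
  rw [kel, mono_mul, ← mono_one]
  rcases moved_cases a.1 a.2 with h | h
  · exact Or.inl (mono_congr (perm_sq _) h)
  · exact Or.inr (mono_congr (perm_sq _) h)

theorem up_sub (z : KQ) : up z.1 = 1 ↔ z = 1 :=
  ⟨fun h => Subtype.ext (up_injective (h.trans (map_one up).symm)), fun h => by rw [h]; exact map_one up⟩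

theorem tK_central : tK ∈ Subgroup.center KQ := Subgroup.mem_center_iff.2 fun g => by
  refine Subtype.ext (up_injective ?_)
  rw [Subgroup.coe_mul, Subgroup.coe_mul, map_mul, map_mul, up_tK]
  exact up_comm g.1

theorem center_KQ (z : KQ) : z ∈ Subgroup.center KQ ↔ z = 1 ∨ z = tK := by
  constructor
  · intro hz
    obtain ⟨x, rfl⟩ := kEquiv.surjective z
    have hc : ∀ y, kel y * kel x = kel x * kel y := fun y => by
      have h := congrArg (fun u : KQ => up u.1) (Subgroup.mem_center_iff.1 hz (kEquiv y))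
      simpa only [Subgroup.coe_mul, map_mul, kEquiv_up] using h
    have h1 : x.1 = 0 := by
      by_contra hne
      obtain ⟨j, hj⟩ := moved_sep_perm x.1 hne
      have h := hc (0, j)
      rw [kel, kel, mono_mul, mono_mul] at h
      have e := (mono_injective _ _ _ _ h).2
      dsimp only at e
      rw [moved_one.1, one_smul] at e
      have e2 : cset x.2 ∆ (cset j ∆ (perm16 x.1 • cset j)) = cset x.2 := by
        rw [← symmDiff_assoc, symmDiff_comm (cset x.2) (cset j), e, symmDiff_assoc, symmDiff_self, symmDiff_bot]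
      rw [symmDiff_eq_left, show cset j ∆ (perm16 x.1 • cset j) = flipSet from hj] at e2
      have : (ptN 1) ∈ flipSet := mem_flipSet.2 OctStab.p0_not_mem
      rw [e2] at this
      exact absurd this (Finset.notMem_empty _)
    rcases moved_sep_set x.2 with h2 | h2 | ⟨i, hi⟩
    · left
      rw [← up_sub, kEquiv_up, kel, ← mono_one]
      exact mono_congr (h1 ▸ moved_one.1) h2
    · right
      refine Subtype.ext (up_injective ?_)
      rw [kEquiv_up, up_tK]
      exact mono_congr (h1 ▸ moved_one.1) h2
    · exfalso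
      have h := hc (i, 0)
      rw [kel, kel, mono_mul, mono_mul] at h
      have e := (mono_injective _ _ _ _ h).2
      dsimp only at e
      simp only [h1, moved_one.1, moved_one.2, one_smul, show ∀ A : Finset GolayPt, A ∆ ∅ = A from fun A => symmDiff_bot A, show ∀ A : Finset GolayPt, ∅ ∆ A = A from fun A => bot_symmDiff A, Finset.smul_finset_empty] at e

      rw [moved, e, symmDiff_self] at hi
      have : (ptN 1) ∈ flipSet := mem_flipSet.2 OctStab.p0_not_mem
      rw [← hi] at this
      exact absurd this (Finset.notMem_empty _)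
  · rintro (rfl | rfl)
    · exact one_mem _
    · exact tK_central

theorem tK_ne : tK ≠ 1 := fun h => by
  have h1 := up_tK
  rw [h] at h1
  have h2 := congrArg (fun k : Co0 => (k • eight (ptN 1)).1 (ptN 1)) h1
  simp only [show up (1 : KQ).1 = 1 from map_one up, one_smul] at h2
  rw [tt_apply, if_neg OctStab.p0_not_mem] at h2
  simp [eight] at h2

theorem isExtraspecial_KQ : Cfsg.IsExtraspecial 2 KQ := by
  haveI : Finite KQ := Finite.of_equiv _ kEquiv
  have hcard : Nat.card (Subgroup.center KQ) = 2 := by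
    rw [Nat.card_eq_two_iff]
    refine ⟨1, ⟨tK, tK_central⟩, fun h => tK_ne (congrArg Subtype.val h).symm,
      Set.eq_univ_of_forall fun z => ?_⟩
    rcases (center_KQ z.1).1 z.2 with h | h
    · exact Or.inl (Subtype.ext h)
    · exact Or.inr (Subtype.ext h)
  refine CfsgLib.SymplecticHall.isExtraspecial_of (IsPGroup.of_card card_KQ) hcard (fun a b => ?_) (fun a => ?_) ?_
  · obtain ⟨x, rfl⟩ := kEquiv.surjective a
    obtain ⟨y, rfl⟩ := kEquiv.surjective b
    have : ⁅kEquiv x, kEquiv y⁆ = 1 ∨ ⁅kEquiv x, kEquiv y⁆ = tK := by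
      rcases key_mul x y with h | h
      · refine Or.inl (commutatorElement_eq_one_iff_mul_comm.2 (Subtype.ext (up_injective ?_)))
        simp only [Subgroup.coe_mul, map_mul, kEquiv_up]; exact h
      · refine Or.inr ?_
        have h' : kEquiv x * kEquiv y = tK * (kEquiv y * kEquiv x) := Subtype.ext (up_injective (by
          simp only [Subgroup.coe_mul, map_mul, kEquiv_up, up_tK]; exact h))
        rw [commutatorElement_def, h']; group
    rcases this with h | h <;> rw [h]
    · exact one_mem _
    · exact tK_central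
  · obtain ⟨x, rfl⟩ := kEquiv.surjective a
    rcases key_sq x with h | h
    · rw [show kEquiv x ^ 2 = 1 from (up_sub _).1 (by
        rw [SubmonoidClass.coe_pow, map_pow, kEquiv_up, pow_two, h])]
      exact one_mem _
    · rw [show kEquiv x ^ 2 = tK from Subtype.ext (up_injective (by
        rw [SubmonoidClass.coe_pow, map_pow, kEquiv_up, pow_two, h, up_tK]))]
      exact tK_central
  · intro h
    have := hcard
    rw [h, Subgroup.card_top, card_KQ] at this
    omega

end CfsgLib.Leech.Co2Cent
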