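/-
The centraliser of the involution has two-core extraspecial of order `2 ^ 9` and quotient the
six-dimensional symplectic group over two elements.
-/
import Cfsg.Agent.Leech.Co2Cent.Kernel
import Cfsg.Agent.SpGeom.Simple
import Cfsg.Agent.AutPSp.Unique

set_option autoImplicit false

namespace CfsgLib.Leech.Co2Cent

open Cfsg CfsgLib.Golay
open CfsgLib.SpSixTwo (G0)

theorem finite_CG : Finite CG := by
  haveI : Finite KQ := Finite.of_equiv _ kEquiv
  haveI : Finite (CG ⧸ KQ) :=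
    Finite.of_equiv G0 (QuotientGroup.quotientKerEquivOfSurjective phi phi_surjective).symm.toEquiv
  refine Nat.finite_of_card_ne_zero ?_
  rw [Subgroup.card_eq_card_quotient_mul_card_subgroup KQ]
  exact Nat.mul_ne_zero Nat.card_pos.ne' Nat.card_pos.ne'

theorem isSimpleGroup_G0 : IsSimpleGroup G0 := by
  have h := CfsgLib.SpGeom.isSimpleGroup_PSp (F := ZMod 2) (m := 3) (by norm_num) (Or.inl le_rfl)
  have hc : Subgroup.center G0 = ⊥ := by
    refine Subgroup.eq_bot_of_card_eq _ ?_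
    rw [CfsgLib.AutPSp.card_center_Sp (by norm_num), if_pos (by decide)]
  let e : Cfsg.PSp 3 (ZMod 2) ≃* G0 := (QuotientGroup.quotientMulEquivOfEq hc).trans QuotientGroup.quotientBot
  haveI : Nontrivial G0 := e.symm.toEquiv.nontrivial
  exact IsSimpleGroup.isSimpleGroup_of_surjective e.toMonoidHom e.surjective

theorem pCore_eq : Cfsg.pCore 2 CG = KQ := by
  haveI := isSimpleGroup_G0
  refine le_antisymm (sSup_le fun N hN => ?_) (le_sSup ⟨inferInstance, IsPGroup.of_card card_KQ⟩)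
  obtain ⟨hn, hp⟩ := hN
  have hnorm : (N.map phi).Normal := hn.map _ phi_surjective
  rcases hnorm.eq_bot_or_eq_top with h | h
  · intro x hx
    refine MonoidHom.mem_ker.2 (Subgroup.mem_bot.1 ?_)
    rw [← h]
    exact Subgroup.mem_map_of_mem _ hx
  · exfalso
    have hp2 : IsPGroup 2 (N.map phi) := hp.map _
    rw [h] at hp2
    haveI : Fact (Nat.Prime 2) := ⟨Nat.prime_two⟩
    obtain ⟨n, hn2⟩ := IsPGroup.iff_card.1 hp2
    rw [Subgroup.card_top, CfsgLib.SpSixTwo.card_G0] at hn2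
    have h3 : 3 ∣ 2 ^ n := hn2 ▸ (by norm_num : (3 : ℕ) ∣ 1451520)
    have := Nat.le_of_dvd (by norm_num) ((by norm_num : Nat.Prime 3).dvd_of_dvd_pow h3)
    omega

theorem orderOf_tC : orderOf tC = 2 := by
  haveI : Fact (Nat.Prime 2) := ⟨Nat.prime_two⟩
  have htt : tt * tt = 1 := by
    refine Subtype.ext (Equiv.ext fun v => Subtype.ext (funext fun p => ?_))
    show (tt • (tt • v)).1 p = v.1 p
    rw [tt_apply, tt_apply]
    split_ifs <;> simp
  refine orderOf_eq_prime ?_ ?_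
  · rw [pow_two]; exact Subtype.ext (congrArg (fun k : Co0 => k.1) htt)
  · intro h
    have h1 := congrArg (fun k : ↥Spor.Co2 => (k.1 (eight (CfsgLib.Golay.ptN 1))).1 (CfsgLib.Golay.ptN 1)) h
    simp only [OneMemClass.coe_one, Equiv.Perm.coe_one, id_eq] at h1
    rw [show (tC.1 (eight (CfsgLib.Golay.ptN 1))) = tt • eight (CfsgLib.Golay.ptN 1) from rfl, tt_apply,
      if_neg CfsgLib.Golay.OctStab.p0_not_mem] at h1
    simp [eight] at h1

/-- The centraliser of an involution. -/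
theorem co2_centraliser : ∃ t : ↥Spor.Co2, orderOf t = 2 ∧
    Cfsg.IsExtraspecial 2 (Cfsg.pCore 2 ↥(Subgroup.centralizer ({t} : Set ↥Spor.Co2))) ∧
    Nat.card (Cfsg.pCore 2 ↥(Subgroup.centralizer ({t} : Set ↥Spor.Co2))) = 2 ^ 9 ∧
    Nonempty (↥(Subgroup.centralizer ({t} : Set ↥Spor.Co2)) ⧸
      Cfsg.pCore 2 ↥(Subgroup.centralizer ({t} : Set ↥Spor.Co2)) ≃* G0) := by
  refine ⟨tC, orderOf_tC, ?_, ?_, ?_⟩
  · exact pCore_eq ▸ isExtraspecial_KQ
  · exact pCore_eq ▸ card_KQ
  · exact ⟨(QuotientGroup.quotientMulEquivOfEq pCore_eq).trans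
      (QuotientGroup.quotientKerEquivOfSurjective phi phi_surjective)⟩

end CfsgLib.Leech.Co2Cent
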